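import Cfsg.Agent.H13.HSMult.CoverData

/-! The checks of the double cover, except the products. -/

set_option autoImplicit false
set_option maxRecDepth 100000

namespace Cfsg.Agent.H13.HSMult.Cover

open Cfsg.Agent.H16 Cfsg.Agent.H36 Cfsg.Agent.H13.SylMult

theorem slp_ok : allFrom ctx.slpOk ctx.ns 0 = true := by decide +kernel

theorem gens_ok : cover.gensOk = true := by decide +kernel

theorem central_ok : cover.centralOk = true := by decide +kernel

theorem shape_ok : allFrom cover.shapeOk 5 0 = true := by decide +kernel

theorem counts : (List.range 5).map (fun i => (cover.lev i).rows.length) = [200, 154, 120, 64, 3] := by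
  decide +kernel

end Cfsg.Agent.H13.HSMult.Cover
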