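import Cfsg.Agent.H13.HSMult.CoverData

/-! The products of the first level. -/

set_option autoImplicit false
set_option maxRecDepth 100000

namespace Cfsg.Agent.H13.HSMult.Cover

open Cfsg.Agent.H16 Cfsg.Agent.H36 Cfsg.Agent.H13.SylMult

theorem rows0 : cover.rowsOk 0 0 200 = true := by decide +kernel

end Cfsg.Agent.H13.HSMult.Cover
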