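import Cfsg.Agent.H13.HSMult.Checks
import Cfsg.Agent.H13.HSMult.CoverChecks
import Cfsg.Agent.H13.HSMult.CoverRows0
import Cfsg.Agent.H13.HSMult.CoverRows1
import Cfsg.Agent.H13.SylMult.Mult
import Cfsg.Agent.H36.HSModel
import Cfsg.Agent.H12.HS.Recognition

/-!
The Schur multiplier of the Higman-Sims group has order two.
-/

set_option autoImplicit false
set_option maxRecDepth 100000

namespace Cfsg.Agent.H13.HSMult

open Cfsg Equiv Cfsg.Agent.H16 Cfsg.Agent.H36 Cfsg.Agent.H13.SylMult

theorem ctx_len : ctx.gens.length = 2 := by decide +kernel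

/-- The generators on the hundred points. -/
noncomputable def σG : Fin ctx.gens.length → HS.P100 := fun c => HS.gen (Fin.cast ctx_len c)

theorem gens_eq : (List.range 2).all (fun c =>
    allFrom (fun x => Nat.beq (HS.ap (getN HS.genTab c) x) (ctx.ap (getN ctx.gens c) x)) 100 0) = true := by
  decide +kernel

theorem σG_rep (c : Fin ctx.gens.length) : ctx.Rep (σG c) (getN ctx.gens c) := fun x => by
  have h := HS.gen_rep (Fin.cast ctx_len c) x
  refine h.trans ?_
  exact Nat.eq_of_beq_eq_true (allFrom_spec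
    (List.all_eq_true.1 gens_eq _ (List.mem_range.2 (Nat.lt_of_lt_of_eq c.isLt ctx_len))) x (Nat.zero_le _)
    (Nat.lt_of_lt_of_eq x.isLt (Nat.zero_add 100).symm))

theorem closure_eq : Subgroup.closure (Set.range σG) = HS.grp := by
  rw [HS.grp]
  congr 1

theorem card_closure : Nat.card (Subgroup.closure (Set.range σG)) = 44352000 := by
  exact (Nat.card_congr (MulEquiv.subgroupCongr closure_eq).toEquiv).trans HS.card_grp

theorem card_ker_dvd_two (Δ : Type) [Group Δ] [Finite Δ]
    (τ : Δ →* Subgroup.closure (Set.range σG)) (hτ : Cfsg.IsStemExtension τ) : Nat.card τ.ker ∣ 2 := by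
  have hg2 := groupFacts (R := perm2) (D := pc2) (C := cert2) σG σG_rep perm2_ok (by decide +kernel)
    (show Nat.Prime 2 by norm_num) pc2_ok rows2_ok (by decide +kernel)
  have hg3 := groupFacts (R := perm3) (D := pc3) (C := cert3) σG σG_rep perm3_ok (by decide +kernel)
    (show Nat.Prime 3 by norm_num) pc3_ok rows3_ok (by decide +kernel)
  have hg5 := groupFacts (R := perm5) (D := pc5) (C := cert5) σG σG_rep perm5_ok (by decide +kernel)
    (show Nat.Prime 5 by norm_num) pc5_ok rows5_ok (by decide +kernel)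
  obtain ⟨E2, F2, h2⟩ := hg2
  obtain ⟨E3, F3, h3⟩ := hg3
  obtain ⟨E5, F5, h5⟩ := hg5
  have b2 := factorization_ker_le hτ (show Nat.Prime 2 by norm_num) pc2_ok rows2_ok combos2_ok h2
    (factorization_eq (a := 9) (b := 86625) (by norm_num : Nat.Prime 2) (by rw [card_closure]; rfl)
      (show ¬ (2 : ℕ) ∣ 86625 by norm_num))
  have b3 := factorization_ker_le hτ (show Nat.Prime 3 by norm_num) pc3_ok rows3_ok combos3_ok h3
    (factorization_eq (a := 2) (b := 4928000) (by norm_num : Nat.Prime 3) (by rw [card_closure]; rfl)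
      (show ¬ (3 : ℕ) ∣ 4928000 by norm_num))
  have b5 := factorization_ker_le hτ (show Nat.Prime 5 by norm_num) pc5_ok rows5_ok combos5_ok h5
    (factorization_eq (a := 3) (b := 354816) (by norm_num : Nat.Prime 5) (by rw [card_closure]; rfl)
      (show ¬ (5 : ℕ) ∣ 354816 by norm_num))
  refine card_ker_dvd hτ (by norm_num) [2, 3, 5] (fun p hp => ?_) (fun p hp hn => ?_)
  · simp only [List.mem_cons, List.not_mem_nil, or_false] at hp
    rcases hp with rfl | rfl | rfl
    · rw [Nat.Prime.factorization_self Nat.prime_two]; exact b2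
    · exact b3.trans (Nat.zero_le _)
    · exact b5.trans (Nat.zero_le _)
  · rw [card_closure]
    simp only [List.mem_cons, List.not_mem_nil, or_false, not_or] at hn
    by_contra hlt
    have hd : p ^ 2 ∣ 2 ^ 9 * (3 ^ 2 * (5 ^ 3 * (7 * 11))) := by
      refine (pow_dvd_pow p (by omega : 2 ≤ (44352000 : ℕ).factorization p)).trans ?_
      norm_num
      exact Nat.ordProj_dvd 44352000 p
    have cop : ∀ q k, q.Prime → p ≠ q → Nat.Coprime (p ^ 2) (q ^ k) := fun q k hq hne =>
      Nat.Coprime.pow 2 k ((Nat.coprime_primes hp hq).2 hne)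
    have h1 := (cop 2 9 Nat.prime_two hn.1).dvd_of_dvd_mul_left hd
    have h2 := (cop 3 2 Nat.prime_three hn.2.1).dvd_of_dvd_mul_left h1
    have h3 := (cop 5 3 (by norm_num) hn.2.2).dvd_of_dvd_mul_left h2
    rcases (Nat.Prime.dvd_mul hp).1 ((dvd_pow_self p two_ne_zero).trans h3) with h | h
    · rw [(Nat.prime_dvd_prime_iff_eq hp (by norm_num)).1 h] at h3; norm_num at h3
    · rw [(Nat.prime_dvd_prime_iff_eq hp (by norm_num)).1 h] at h3; norm_num at h3

theorem cover_checked : Cover.cover.Checked where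
  slp k hk := allFrom_spec Cover.slp_ok k (Nat.zero_le _) (Nat.lt_of_lt_of_eq hk (Nat.zero_add _).symm)
  gens := Cover.gens_ok
  central := Cover.central_ok
  start := ⟨rfl, rfl⟩
  shape i hi := allFrom_spec Cover.shape_ok i (Nat.zero_le _) (by
    have : Cover.cover.levels.length = 5 := rfl
    omega)
  rows i hi j hj := by
    have h5 : Cover.cover.levels.length = 5 := rfl
    have hc := Cover.counts
    simp only [List.range_succ, List.range_zero, List.nil_append, List.map_cons, List.map_nil,
      List.cons_append, List.cons.injEq, and_true] at hc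
    obtain ⟨c0, c1, c2, c3, c4⟩ := hc
    rw [h5] at hi
    interval_cases i
    · exact allFrom_spec Cover.rows0 j (Nat.zero_le _) (by omega)
    · exact allFrom_spec Cover.rows1 j (Nat.zero_le _) (by omega)
    · exact allFrom_spec Cover.rows2 j (Nat.zero_le _) (by omega)
    · exact allFrom_spec Cover.rows3 j (Nat.zero_le _) (by omega)
    · exact allFrom_spec Cover.rows4 j (Nat.zero_le _) (by omega)

theorem coverGens_eq : (List.range 2).all (fun c => allFrom (fun x =>
    Nat.beq (HS.ap (getN HS.genTab c) x) (Cover.ctx.ap (getN Cover.ctx.gens c) x)) 100 0) = true := by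
  decide +kernel

theorem exists_double_cover : ∃ (Γ : Type) (_ : Group Γ) (_ : Finite Γ)
    (π : Γ →* Subgroup.closure (Set.range (fun c : Fin 2 => HS.gen c))),
    Cfsg.IsStemExtension π ∧ IsCyclic π.ker ∧ Nat.card π.ker = 2 :=
  exists_stem cover_checked rfl (fun c : Fin 2 => HS.gen c) fun c x =>
    (HS.gen_rep c x).trans (Nat.eq_of_beq_eq_true (allFrom_spec
      (List.all_eq_true.1 coverGens_eq _ (List.mem_range.2 c.isLt)) x (Nat.zero_le _)
      (Nat.lt_of_lt_of_eq x.isLt (Nat.zero_add 100).symm)))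

theorem hasMultiplier : Cfsg.HasCyclicSchurMultiplier ↥Spor.HS 2 := by
  obtain ⟨e⟩ := H12.HS.nonempty_equiv_hsGrp
  let E : ↥Spor.HS ≃* ↥HS.grp := e.trans HS.modelEquiv
  refine hasCyclic_of_bound E (fun Δ _ _ τ hτ => ?_) two_ne_zero ?_
  · let c := MulEquiv.subgroupCongr closure_eq.symm
    have h := card_ker_dvd_two Δ (c.toMonoidHom.comp τ) (H82.isStemExtension_comp_equiv hτ c)
    rwa [MonoidHom.ker_comp_of_injective _ _ c.injective] at h
  · obtain ⟨Γ, i1, i2, π, hπ, hc, hn⟩ := exists_double_cover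
    exact ⟨Γ, i1, i2, π, hπ, hc, hn⟩

end Cfsg.Agent.H13.HSMult
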